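import Cfsg.Agent.Lib.Helper44.FW.Defs
import Cfsg.Agent.S0215

/-!
FW (S3211): backup assembly of the package propositions (interface cross-check).
-/

set_option autoImplicit false

namespace Cfsg.Agent.Lib.Helper41.FW

open Cfsg.Agent.Lib.Helper44.FW

universe u v w

theorem asm (hTrans₁ : PkgTrans.{u, v}) (hTrans₂ : PkgTrans.{u, w}) (hInvol : PkgInvol.{u})
    (hHConj : PkgHConj.{u, v, w}) (hSwap : PkgSwap.{u}) (hCntEq : PkgCntEq.{u})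
    (hCY : PkgCY.{u}) (hPhi : PkgPhi.{u}) (hCnt : PkgCnt.{u}) (hIso : PkgIso.{u})
    (hZCor : PkgZCor.{u})
    {G : Type u} [Group G] [Finite G]
    {F₁ : Type v} [Field F₁] [Fintype F₁] {F₂ : Type w} [Field F₂] [Fintype F₂]
    (hF₁ : Odd (Fintype.card F₁)) (hF₂ : Odd (Fintype.card F₂)) (L₁ L₂ : Subgroup G)
    (e₁ : ↥L₁ ≃* Matrix.SpecialLinearGroup (Fin 2) F₁) (e₂ : ↥L₂ ≃* Matrix.SpecialLinearGroup (Fin 2) F₂)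
    (hc : ∀ x ∈ L₁, ∀ y ∈ L₂, x * y = y * x) (j : G) (hj : orderOf j = 2) (hm : L₁ ⊓ L₂ = Subgroup.zpowers j)
    (hle : L₁ ⊔ L₂ ≤ Subgroup.centralizer ({j} : Set G)) (hi : (L₁ ⊔ L₂).relIndex (Subgroup.centralizer ({j} : Set G)) = 2) (n : G) (hn : n ∈ Subgroup.centralizer ({j} : Set G))
    (hn2 : n ^ 2 = j) (hswap : L₁.map (MulAut.conj n).toMonoidHom = L₂) :
    Subgroup.centralizer ({j} : Set G) ⊔ Cfsg.oddCore G = ⊤ := by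
  classical
  have cfg : Cfg L₁ L₂ j n := ⟨hc, hm, hj, hle, hi, hn, hn2, hswap⟩
  have hjmem : j ∈ L₁ ⊓ L₂ := by rw [hm]; exact Subgroup.mem_zpowers j
  have hj1 : j ∈ L₁ := (Subgroup.mem_inf.mp hjmem).1
  have hj2 : j ∈ L₂ := (Subgroup.mem_inf.mp hjmem).2
  have hjsq : j ^ 2 = 1 := by rw [← hj]; exact pow_orderOf_eq_one j
  have hjne : j ≠ 1 := by
    intro h; rw [h, orderOf_one] at hj; exact absurd hj (by norm_num)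
  have hS₁ : SL2Like L₁ j := hTrans₁ G F₁ hF₁ L₁ ⟨e₁⟩ j hj1 hj
  have hS₂ : SL2Like L₂ j := hTrans₂ G F₂ hF₂ L₂ ⟨e₂⟩ j hj2 hj
  have hInv : Invol L₁ L₂ j := hInvol G L₁ L₂ j n cfg hS₁.uniq hS₂.uniq
  have hHC : HConj G j := hHConj G F₁ F₂ hF₁ hF₂ L₁ L₂ ⟨e₁⟩ ⟨e₂⟩ j n cfg hInv
  apply hZCor G j hj
  -- a Sylow 2-subgroup containing j
  have hpg : IsPGroup 2 (Subgroup.zpowers j) := by
    apply IsPGroup.of_card (n := 1)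
    rw [Nat.card_zpowers, hj]; norm_num
  obtain ⟨P, hP⟩ := hpg.exists_le_sylow
  have hjP : j ∈ (P : Subgroup G) := hP (Subgroup.mem_zpowers j)
  refine Cfsg.Agent.S0215.result P j hj hjP (hIso G j hj ?_ P hjP)
  -- no other conjugate of j commutes with j
  intro g hcomm
  by_contra hne
  obtain ⟨x₀, hx₀, hx₀2⟩ := hS₁.ex4
  -- y₀ and t₀
  have hy₀ : n * x₀ * n⁻¹ ∈ L₂ := by
    rw [← hswap]
    exact ⟨x₀, hx₀, by simp [MulAut.conj_apply]⟩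
  have hnj : n * j = j * n := by
    have := Subgroup.mem_centralizer_iff.mp hn j (Set.mem_singleton j)
    exact this.symm
  have hy₀2 : (n * x₀ * n⁻¹) ^ 2 = j := by
    have : (n * x₀ * n⁻¹) ^ 2 = n * x₀ ^ 2 * n⁻¹ := by
      rw [pow_two, pow_two]; group
    rw [this, hx₀2, hnj, mul_inv_cancel_right]
  have hcomm₀ : x₀ * (n * x₀ * n⁻¹) = (n * x₀ * n⁻¹) * x₀ := hc x₀ hx₀ _ hy₀
  have ht₀Y : x₀ * (n * x₀ * n⁻¹) ∈ L₁ ⊔ L₂ :=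
    Subgroup.mul_mem _ (Subgroup.mem_sup_left hx₀) (Subgroup.mem_sup_right hy₀)
  have ht₀C : x₀ * (n * x₀ * n⁻¹) ∈ Subgroup.centralizer ({j} : Set G) := hle ht₀Y
  have ht₀2 : (x₀ * (n * x₀ * n⁻¹)) ^ 2 = 1 := by
    have h1 : (x₀ * (n * x₀ * n⁻¹)) ^ 2 = x₀ ^ 2 * (n * x₀ * n⁻¹) ^ 2 := by
      rw [pow_two, pow_two, pow_two]
      calc x₀ * (n * x₀ * n⁻¹) * (x₀ * (n * x₀ * n⁻¹))
          = x₀ * ((n * x₀ * n⁻¹) * x₀) * (n * x₀ * n⁻¹) := by simp only [mul_assoc]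
        _ = x₀ * (x₀ * (n * x₀ * n⁻¹)) * (n * x₀ * n⁻¹) := by rw [← hcomm₀]
        _ = x₀ * x₀ * ((n * x₀ * n⁻¹) * (n * x₀ * n⁻¹)) := by simp only [mul_assoc]
    rw [h1, hx₀2, hy₀2, ← pow_two, hjsq]
  have hinter : ∀ z : G, z ∈ L₁ → z ∈ L₂ → z ^ 2 = 1 := by
    intro z hz1 hz2
    have hz : z ∈ Subgroup.zpowers j := by rw [← hm]; exact ⟨hz1, hz2⟩
    obtain ⟨k, rfl⟩ := Subgroup.mem_zpowers_iff.mp hz
    rw [← zpow_natCast, ← zpow_mul, mul_comm, zpow_mul, zpow_natCast, hjsq, one_zpow]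
  have hx₀notL₂ : x₀ ∉ L₂ := by
    intro h
    have := hinter x₀ hx₀ h
    rw [hx₀2] at this; exact hjne this
  have ht₀ne1 : x₀ * (n * x₀ * n⁻¹) ≠ 1 := by
    intro h
    apply hx₀notL₂
    have : x₀ = (n * x₀ * n⁻¹)⁻¹ := eq_inv_of_mul_eq_one_left h
    rw [this]; exact Subgroup.inv_mem _ hy₀
  have ht₀nej : x₀ * (n * x₀ * n⁻¹) ≠ j := by
    intro h
    apply hx₀notL₂
    have : x₀ = j * (n * x₀ * n⁻¹)⁻¹ := by rw [← h]; group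
    rw [this]; exact Subgroup.mul_mem _ hj2 (Subgroup.inv_mem _ hy₀)
  obtain ⟨g₂, hg₂a, hg₂b⟩ := hSwap G j (x₀ * (n * x₀ * n⁻¹)) hj hHC ht₀C ht₀2 ht₀ne1 ht₀nej
    ⟨g, hne, hcomm⟩
  have heq := hCntEq G j (x₀ * (n * x₀ * n⁻¹)) g₂ hg₂a hg₂b
  have hlt := hCnt G L₁ L₂ j n cfg x₀ hx₀ hx₀2 (hCY G L₁ L₂ j n cfg hS₁ hS₂ x₀ hx₀ hx₀2)
    (hPhi G L₁ L₂ j n cfg hInv x₀ hx₀ hx₀2)
  rw [heq] at hlt
  exact lt_irrefl _ hlt

end Cfsg.Agent.Lib.Helper41.FW
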